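/- Tower KP (S4202), slot KB: basic bounds on class numbers. -/
import Cfsg.Agent.H2.KpSpec
import Cfsg.Agent.S4200
import Cfsg.Agent.S4201

set_option autoImplicit false

namespace H8.KpKB

open H2.Kp

theorem jobKB : KB where
  card Γ _ _ := Nat.card_le_card_of_surjective _ ConjClasses.mk_surjective
  idx Γ _ _ K L h := by
    have := (Cfsg.Agent.S4200.result (L.subgroupOf K)).2.1
    rwa [show Nat.card (ConjClasses (L.subgroupOf K)) = kc L from
      kk_congr (Subgroup.subgroupOfEquivOfLe h)] at this
  ker Γ X _ _ _ K L ψ h hk := by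
    have e : ψ.ker = L.subgroupOf K := Subgroup.ext fun x => hk x
    have := Cfsg.Agent.S4201.result ψ.ker
    rw [show Nat.card (ConjClasses (K ⧸ ψ.ker)) = kc ψ.range from
      kk_congr (QuotientGroup.quotientKerEquivRange ψ),
      show Nat.card (ConjClasses ψ.ker) = kc L from
        kk_congr ((MulEquiv.subgroupCongr e).trans (Subgroup.subgroupOfEquivOfLe h)), mul_comm] at this
    exact this
  cov Γ ι _ _ I X h := by
    classical
    have : Finite (ConjClasses Γ) := Finite.of_surjective _ ConjClasses.mk_surjective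
    have key : ∀ J : Finset ι, (⋃ i ∈ J, ConjClasses.mk '' X i).ncard ≤ ∑ i ∈ J, ncl (X i) := by
      intro J
      induction J using Finset.induction_on with
      | empty => simp
      | insert a J ha ih =>
        rw [Finset.set_biUnion_insert, Finset.sum_insert ha]
        exact (Set.ncard_union_le _ _).trans (Nat.add_le_add_left ih _)
    refine le_trans (le_of_eq ?_) (key I)
    rw [kk, ← Set.ncard_univ]
    congr 1
    refine (Set.eq_univ_of_forall fun c => ?_).symm
    obtain ⟨x, rfl⟩ := ConjClasses.mk_surjective c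
    obtain ⟨i, hi, y, hy, e⟩ := h x
    exact Set.mem_iUnion₂.2 ⟨i, hi, y, hy, (ConjClasses.mk_eq_mk_iff_isConj.2 e).symm⟩

theorem jobLamK : KB → LamK := by
  intro kb Γ _ _ n p e w g ih hp hw hg
  refine ⟨Nat.one_le_pow _ _ hw, ?_, fun K L h hi => ?_, fun K L γ _ ψ hγ h hk => ?_⟩
  · have := kb.card (⊥ : Subgroup Γ)
    rw [Subgroup.card_bot] at this
    exact pow_le_one' this e
  · rw [← mul_pow]
    exact Nat.pow_le_pow_left ((kb.idx Γ K L h).trans (Nat.mul_le_mul_right _ hi)) e
  · have h1 := ih γ ψ.range hγ fun d =>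
      hp (d.trans ((Subgroup.card_range_dvd ψ).trans K.card_subgroup_dvd_card))
    refine (Nat.pow_le_pow_left ((kb.ker Γ _ K L ψ h hk).trans (Nat.mul_le_mul_right _ h1)) e).trans ?_
    rw [mul_pow]
    exact Nat.mul_le_mul_right _ (hg _ hγ)

end H8.KpKB
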